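import Cfsg.Agent.H167.AltBldg
import Cfsg.Agent.Tits.Gate
import Cfsg.Agent.H439.CC.Defs

/-!
# Solomon's formula for the parabolic subgroups of a finite Coxeter group (helper350, for S4879 row E8, lemma L2)

* `solomon_pt` : for `g ∈ W_J` the alternating sum over `K ⊆ J` of the number of the cosets `x W_K` of `W_J` fixed by
  `g` is `(-1) ^ ℓ(g)`;
* `solomon` : `∑_{K ⊆ J} (-1)^|K| ⟨φ, 1_{W_K}^W⟩ = |W_J|⁻¹ ∑_{w ∈ W_J} (-1)^ℓ(w) φ(w)` for every class function `φ`.
-/

set_option autoImplicit false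
set_option linter.unusedSectionVars false

namespace Cfsg.Agent.H350.LB

open Cfsg Cfsg.Agent.Tits.Core Cfsg.Agent.Tits.Core.Bldg Cfsg.Agent.Tits.Exchange Cfsg.Agent.H167.AltTrace
  Cfsg.Agent.H167.AltBldg Module
open Cfsg.Agent.H439.CC (mu)

variable {I : Type*} [DecidableEq I] {M : CoxeterMatrix I} {W : Type*} [Group W]
  (cs : CoxeterSystem M W) (J : Finset I)

/-- The thin building. -/
def thinB : Bldg cs W where
  δ x y := x⁻¹ * y
  eq_one x y := inv_mul_eq_one
  symm x y := by group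
  step x y z i h := by
    left
    rw [inv_mul_eq_iff_eq_mul] at h
    rw [h, mul_assoc]
  step_lt x y z i h _ := by
    rw [inv_mul_eq_iff_eq_mul] at h
    rw [h, mul_assoc]
  exists_step x y i := ⟨y * cs.simple i, by group, by group⟩

/-- the system of the cosets of the `W_K`, `K ⊆ J`, in `W_J` -/
noncomputable def sysJ : Sys (WJ cs (J : Set I)) J :=
  resSys (thinB cs) J (Subtype.val : WJ cs (J : Set I) → W) Subtype.val_injective
    (fun x y h => ⟨⟨y, by
      have h1 := mul_mem x.2 (show (x : W)⁻¹ * y ∈ WJ cs (J : Set I) from h)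
      rwa [mul_inv_cancel_left] at h1⟩, rfl⟩) 1

theorem r_sysJ (K : Finset I) (x y : WJ cs (J : Set I)) :
    (sysJ cs J).r K x y ↔ (x : W)⁻¹ * (y : W) ∈ WJ cs (K : Set I) := Iff.rfl

theorem sgn_mul (a b : W) : (-1 : ℂ) ^ cs.length (a * b) = (-1) ^ cs.length a * (-1) ^ cs.length b := by
  rw [← pow_add]
  have h := cs.length_mul_mod_two a b
  rcases Nat.even_or_odd (cs.length (a * b)) with h1 | h1
  · have h2 : Even (cs.length a + cs.length b) := by
      rw [Nat.even_iff] at h1 ⊢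
      omega
    rw [h1.neg_one_pow, h2.neg_one_pow]
  · have h2 : Odd (cs.length a + cs.length b) := by
      rw [Nat.odd_iff] at h1 ⊢
      omega
    rw [h1.neg_one_pow, h2.neg_one_pow]

theorem sgn_simple (i : I) : (-1 : ℂ) ^ cs.length (cs.simple i) = -1 := by
  rw [cs.length_simple, pow_one]

theorem sgn_inv (a : W) : (-1 : ℂ) ^ cs.length a⁻¹ = (-1) ^ cs.length a := by
  rw [cs.length_inv]

section Fin

variable [Finite W]

noncomputable instance : Fintype (WJ cs (J : Set I)) := Fintype.ofFinite _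

theorem mem_harm_sysJ (h : WJ cs (J : Set I) → ℂ) :
    h ∈ (sysJ cs J).harm ↔ ∀ x : WJ cs (J : Set I), h x = (-1) ^ cs.length (x : W) * h 1 := by
  classical
  rw [Sys.mem_harm]
  have key : ∀ t (ht : t ∈ J) (x : WJ cs (J : Set I)), ∑ y, (if (sysJ cs J).r {t} x y then h y else 0) =
      h x + h (x * ⟨cs.simple t, simple_mem_WJ cs (Finset.mem_coe.2 ht)⟩) := by
    intro t ht x
    set s : WJ cs (J : Set I) := ⟨cs.simple t, simple_mem_WJ cs (Finset.mem_coe.2 ht)⟩ with hs
    have hs1 : s ≠ 1 := by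
      intro h1
      have h2 : cs.simple t = 1 := congrArg Subtype.val h1
      have h3 := cs.length_simple t
      rw [h2, cs.length_one] at h3
      omega
    have h1 : ∀ y, (sysJ cs J).r {t} x y ↔ y = x ∨ y = x * s := by
      intro y
      rw [r_sysJ, Finset.coe_singleton]
      constructor
      · intro h1
        have h2 := mem_WJ_singleton.1 h1
        rcases h2 with h2 | h2
        · left
          exact Subtype.ext (inv_mul_eq_one.1 h2).symm
        · right
          apply Subtype.ext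
          rw [inv_mul_eq_iff_eq_mul] at h2
          exact h2
      · rintro (rfl | rfl)
        · rw [inv_mul_cancel]
          exact one_mem _
        · rw [Subgroup.coe_mul, inv_mul_cancel_left]
          exact simple_mem_WJ cs (Set.mem_singleton t)
    have h2 : ∀ y, (if (sysJ cs J).r {t} x y then h y else 0) =
        (if y = x then h x else 0) + (if y = x * s then h (x * s) else 0) := by
      intro y
      by_cases e1 : y = x
      · have e2 : y ≠ x * s := by
          intro e2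
          rw [e1] at e2
          exact hs1 (mul_eq_left.1 e2.symm)
        rw [if_pos ((h1 y).2 (Or.inl e1)), if_pos e1, if_neg e2, add_zero, e1]
      · by_cases e2 : y = x * s
        · rw [if_pos ((h1 y).2 (Or.inr e2)), if_neg e1, if_pos e2, zero_add, e2]
        · rw [if_neg (fun h3 => (h1 y).1 h3 |>.elim e1 e2), if_neg e1, if_neg e2, add_zero]
    rw [Finset.sum_congr rfl fun y _ => h2 y, Finset.sum_add_distrib, Finset.sum_ite_eq', Finset.sum_ite_eq',
      if_pos (Finset.mem_univ _), if_pos (Finset.mem_univ _)]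
  constructor
  · intro h0 x
    have h1 : ∀ (ω : List I) (hω : ∀ j ∈ ω, j ∈ (J : Set I)),
        h ⟨cs.wordProd ω, wordProd_mem_WJ cs hω⟩ = (-1) ^ cs.length (cs.wordProd ω) * h 1 := by
      intro ω
      induction ω using List.reverseRecOn with
      | nil =>
        intro hω
        have e : (⟨cs.wordProd [], wordProd_mem_WJ cs hω⟩ : WJ cs (J : Set I)) = 1 :=
          Subtype.ext cs.wordProd_nil
        rw [e, cs.wordProd_nil, cs.length_one, pow_zero, one_mul]
      | append_singleton ω i ih =>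
        intro hω
        have hω' : ∀ j ∈ ω, j ∈ (J : Set I) := fun j hj => hω j (by simp [hj])
        have hi : i ∈ J := Finset.mem_coe.1 (hω i (by simp))
        have h2 := key i hi ⟨cs.wordProd ω, wordProd_mem_WJ cs hω'⟩
        rw [h0 i hi] at h2
        have e : (⟨cs.wordProd (ω ++ [i]), wordProd_mem_WJ cs hω⟩ : WJ cs (J : Set I)) =
            ⟨cs.wordProd ω, wordProd_mem_WJ cs hω'⟩ * ⟨cs.simple i, simple_mem_WJ cs (Finset.mem_coe.2 hi)⟩ := by
          apply Subtype.ext
          show cs.wordProd (ω ++ [i]) = cs.wordProd ω * cs.simple i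
          rw [cs.wordProd_append, cs.wordProd_singleton]
        rw [e, cs.wordProd_append, cs.wordProd_singleton, sgn_mul, sgn_simple]
        rw [ih hω'] at h2
        linear_combination -h2
    obtain ⟨ω, hω, -, hx⟩ := exists_reduced_of_mem_WJ cs x.2
    have h2 := h1 ω hω
    have e : (⟨cs.wordProd ω, wordProd_mem_WJ cs hω⟩ : WJ cs (J : Set I)) = x := Subtype.ext hx
    rw [e] at h2
    rw [h2, hx]
  · intro h0 t ht x
    rw [key t ht x, h0 x, h0 (x * _), Subgroup.coe_mul, sgn_mul, sgn_simple]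
    ring

theorem hr_sysJ : ∀ K, K ⊆ J → ∀ (g x y : WJ cs (J : Set I)), (sysJ cs J).r K x y →
    (sysJ cs J).r K (g • x) (g • y) := by
  intro K _ g x y h
  rw [r_sysJ] at h ⊢
  have e : ((g • x : WJ cs (J : Set I)) : W)⁻¹ * ((g • y : WJ cs (J : Set I)) : W) = (x : W)⁻¹ * (y : W) := by
    rw [smul_eq_mul, smul_eq_mul, Subgroup.coe_mul, Subgroup.coe_mul]
    group
  rwa [e]

theorem trace_sysJ (g : WJ cs (J : Set I)) :
    LinearMap.trace ℂ (sysJ cs J).harm
      ((permRep ℂ (WJ cs (J : Set I)) (WJ cs (J : Set I)) g).restrict ((sysJ cs J).smul_mem_harm (hr_sysJ cs J) g)) =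
      (-1) ^ cs.length (g : W) := by
  classical
  set v : WJ cs (J : Set I) → ℂ := fun x => (-1) ^ cs.length (x : W) with hv
  have hvm : v ∈ (sysJ cs J).harm := by
    rw [mem_harm_sysJ]
    intro x
    simp [hv]
  have hne : (⟨v, hvm⟩ : (sysJ cs J).harm) ≠ 0 := by
    intro h
    have h1 := congrFun (congrArg Subtype.val h) 1
    simp [hv] at h1
  have hspan : ∀ w : (sysJ cs J).harm, ∃ c : ℂ, c • (⟨v, hvm⟩ : (sysJ cs J).harm) = w := by
    intro w
    refine ⟨(w : WJ cs (J : Set I) → ℂ) 1, ?_⟩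
    apply Subtype.ext
    funext x
    have h1 := (mem_harm_sysJ cs J _).1 w.2 x
    show (w : WJ cs (J : Set I) → ℂ) 1 * (-1) ^ cs.length (x : W) = _
    rw [h1, mul_comm]
  have hfin : finrank ℂ (sysJ cs J).harm = 1 := finrank_eq_one_iff'.2 ⟨⟨v, hvm⟩, hne, hspan⟩
  have hlin : (permRep ℂ (WJ cs (J : Set I)) (WJ cs (J : Set I)) g).restrict
      ((sysJ cs J).smul_mem_harm (hr_sysJ cs J) g) = ((-1 : ℂ) ^ cs.length (g : W)) • LinearMap.id := by
    apply LinearMap.ext
    intro w
    apply Subtype.ext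
    funext x
    have h1 := (mem_harm_sysJ cs J _).1 w.2
    show (w : WJ cs (J : Set I) → ℂ) (g⁻¹ • x) = (-1 : ℂ) ^ cs.length (g : W) * (w : WJ cs (J : Set I) → ℂ) x
    rw [h1 (g⁻¹ • x), h1 x, smul_eq_mul, Subgroup.coe_mul, sgn_mul, Subgroup.coe_inv, sgn_inv]
    ring
  rw [hlin, map_smul, LinearMap.trace_id, hfin, smul_eq_mul, Nat.cast_one, mul_one]

/-- **Solomon's formula**, pointwise. -/
theorem solomon_pt (g : WJ cs (J : Set I)) :
    ∑ K ∈ J.powerset, (-1 : ℂ) ^ K.card *
      (Nat.card {x : WJ cs (J : Set I) // K ⊆ (sysJ cs J).N x ∧ (x : W)⁻¹ * (g * x : WJ cs (J : Set I)) ∈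
        WJ cs (K : Set I)} : ℂ) = (-1) ^ cs.length (g : W) := by
  have : Nonempty (WJ cs (J : Set I)) := ⟨1⟩
  rw [← trace_sysJ cs J g, (sysJ cs J).trace_harm (hr_sysJ cs J) g]
  rfl

theorem card_gates {K : Finset I} (hK : K ⊆ J) :
    Nat.card {x : WJ cs (J : Set I) // K ⊆ (sysJ cs J).N x} * Nat.card (WJ cs (K : Set I)) =
      Nat.card (WJ cs (J : Set I)) := by
  classical
  rw [← Nat.card_prod]
  have hKJ : WJ cs (K : Set I) ≤ WJ cs (J : Set I) := WJ_mono cs (Finset.coe_subset.2 hK)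
  have heq := (sysJ cs J).equiv K hK
  refine Nat.card_congr (Equiv.ofBijective
    (fun p : {x : WJ cs (J : Set I) // K ⊆ (sysJ cs J).N x} × WJ cs (K : Set I) =>
      (p.1 : WJ cs (J : Set I)) * ⟨(p.2 : W), hKJ p.2.2⟩) ⟨?_, ?_⟩)
  · rintro ⟨x, a⟩ ⟨y, b⟩ h
    have h1 : ((x : WJ cs (J : Set I)) : W) * (a : W) = ((y : WJ cs (J : Set I)) : W) * (b : W) :=
      congrArg Subtype.val h
    have h2 : (sysJ cs J).r K (x : WJ cs (J : Set I)) y := by
      rw [r_sysJ]
      have h3 : ((x : WJ cs (J : Set I)) : W)⁻¹ * ((y : WJ cs (J : Set I)) : W) = (a : W) * (b : W)⁻¹ := by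
        rw [inv_mul_eq_iff_eq_mul, ← mul_assoc, h1, mul_inv_cancel_right]
      rw [h3]
      exact mul_mem a.2 (inv_mem b.2)
    have h3 := (sysJ cs J).gate_unique hK x.2 y.2 h2
    have h4 : x = y := Subtype.ext h3
    subst h4
    have h5 : (a : W) = b := mul_left_cancel h1
    rw [Subtype.ext h5]
  · intro y
    have h1 := (sysJ cs J).gt_rel hK y
    have h2 := heq.symm h1
    rw [r_sysJ] at h2
    refine ⟨((sysJ cs J).gt hK y, ⟨_, h2⟩), ?_⟩
    apply Subtype.ext
    show (((sysJ cs J).gt hK y : WJ cs (J : Set I)) : W) * _ = _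
    rw [mul_inv_cancel_left]

/-- **Solomon's formula** for the multiplicities: `φ` constant on the conjugacy classes. -/
theorem solomon_sum (φ : W → ℂ) (hφ : ∀ x g, φ (x * g * x⁻¹) = φ g) :
    ∑ K ∈ J.powerset, (-1 : ℂ) ^ K.card * mu (WJ cs (K : Set I)) φ =
      (Nat.card (WJ cs (J : Set I)) : ℂ)⁻¹ * ∑ w : WJ cs (J : Set I), (-1) ^ cs.length (w : W) * φ w := by
  classical
  have hJ0 : (Nat.card (WJ cs (J : Set I)) : ℂ) ≠ 0 := by exact_mod_cast Nat.card_pos.ne'
  rw [eq_inv_mul_iff_mul_eq₀ hJ0, Finset.mul_sum]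
  have h1 : ∀ w : WJ cs (J : Set I), (-1 : ℂ) ^ cs.length (w : W) * φ w = ∑ K ∈ J.powerset, (-1 : ℂ) ^ K.card *
      ∑ x : WJ cs (J : Set I), if K ⊆ (sysJ cs J).N x ∧ (x : W)⁻¹ * (w * x : WJ cs (J : Set I)) ∈
        WJ cs (K : Set I) then φ w else 0 := by
    intro w
    rw [← solomon_pt cs J w, Finset.sum_mul]
    refine Finset.sum_congr rfl fun K _ => ?_
    rw [mul_assoc]
    congr 1
    rw [← Finset.sum_filter, Finset.sum_const, nsmul_eq_mul, Nat.card_eq_fintype_card, Fintype.card_subtype]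
  rw [Finset.sum_congr rfl fun w _ => h1 w, Finset.sum_comm]
  refine Finset.sum_congr rfl fun K hK => ?_
  rw [Finset.mem_powerset] at hK
  have hKJ : WJ cs (K : Set I) ≤ WJ cs (J : Set I) := WJ_mono cs (Finset.coe_subset.2 hK)
  rw [← Finset.mul_sum, mul_left_comm]
  congr 1
  rw [Finset.sum_comm]
  have h2 : ∀ x : WJ cs (J : Set I), (∑ w : WJ cs (J : Set I), if K ⊆ (sysJ cs J).N x ∧
      (x : W)⁻¹ * (w * x : WJ cs (J : Set I)) ∈ WJ cs (K : Set I) then φ w else 0) =
      if K ⊆ (sysJ cs J).N x then ∑ᶠ k : WJ cs (K : Set I), φ k else 0 := by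
    intro x
    by_cases hx : K ⊆ (sysJ cs J).N x
    · rw [if_pos hx]
      have : Fintype (WJ cs (K : Set I)) := Fintype.ofFinite _
      rw [finsum_eq_sum_of_fintype]
      have h3 : ∀ w : WJ cs (J : Set I), (if K ⊆ (sysJ cs J).N x ∧
          (x : W)⁻¹ * (w * x : WJ cs (J : Set I)) ∈ WJ cs (K : Set I) then φ w else 0) =
          if (x : W)⁻¹ * (w : W) * (x : W) ∈ WJ cs (K : Set I) then φ w else 0 := by
        intro w
        rw [Subgroup.coe_mul, ← mul_assoc]
        simp only [hx, true_and]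
      rw [Finset.sum_congr rfl fun w _ => h3 w, ← Finset.sum_filter]
      symm
      refine Finset.sum_bij (fun k _ => (x * ⟨(k : W), hKJ k.2⟩ * x⁻¹ : WJ cs (J : Set I))) ?_ ?_ ?_ ?_
      · intro k _
        simp only [Finset.mem_filter, Finset.mem_univ, true_and]
        have e : (x : W)⁻¹ * ((x * ⟨(k : W), hKJ k.2⟩ * x⁻¹ : WJ cs (J : Set I)) : W) * (x : W) = k := by
          show (x : W)⁻¹ * ((x : W) * (k : W) * (x : W)⁻¹) * (x : W) = k
          group
        rw [e]
        exact k.2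
      · intro k _ k' _ h4
        have h5 : (x : W) * (k : W) * (x : W)⁻¹ = (x : W) * (k' : W) * (x : W)⁻¹ := congrArg Subtype.val h4
        exact Subtype.ext (mul_left_cancel (mul_right_cancel h5))
      · intro w hw
        simp only [Finset.mem_filter, Finset.mem_univ, true_and] at hw
        refine ⟨⟨_, hw⟩, Finset.mem_univ _, ?_⟩
        apply Subtype.ext
        show (x : W) * ((x : W)⁻¹ * (w : W) * (x : W)) * (x : W)⁻¹ = w
        group
      · intro k _
        exact (hφ (x : W) (k : W)).symm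
    · rw [if_neg hx]
      refine Finset.sum_eq_zero fun w _ => if_neg fun h => hx h.1
  rw [Finset.sum_congr rfl fun x _ => h2 x, ← Finset.sum_filter, Finset.sum_const, nsmul_eq_mul]
  have h3 : ((Finset.univ.filter fun x : WJ cs (J : Set I) => K ⊆ (sysJ cs J).N x).card : ℂ) *
      (Nat.card (WJ cs (K : Set I)) : ℂ) = (Nat.card (WJ cs (J : Set I)) : ℂ) := by
    rw [← card_gates cs J hK, Nat.cast_mul, ← Fintype.card_subtype, ← Nat.card_eq_fintype_card]
  have hK0 : (Nat.card (WJ cs (K : Set I)) : ℂ) ≠ 0 := by exact_mod_cast Nat.card_pos.ne'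
  show (Nat.card (WJ cs (J : Set I)) : ℂ) * ((Nat.card (WJ cs (K : Set I)) : ℂ)⁻¹ * ∑ᶠ k : WJ cs (K : Set I), φ k) = _
  rw [← h3]
  field_simp

/-- **Solomon's formula**, with the parabolic subgroups of `H439.CC`. -/
theorem solomon (φ : W → ℂ) (hφ : ∀ x g, φ (x * g * x⁻¹) = φ g) :
    ∑ K ∈ J.powerset, (-1 : ℂ) ^ K.card * mu (H439.CC.WJ cs (K : Set I)) φ =
      (Nat.card (H439.CC.WJ cs (J : Set I)) : ℂ)⁻¹ *
        ∑ᶠ w : H439.CC.WJ cs (J : Set I), (-1) ^ cs.length (w : W) * φ w := by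
  have h := solomon_sum cs J φ hφ
  rw [← finsum_eq_sum_of_fintype] at h
  exact h

/-- **Solomon's formula** for characters. -/
theorem solomon_char (χ : IrrCharacter W) :
    ∑ K ∈ J.powerset, (-1 : ℂ) ^ K.card * mu (H439.CC.WJ cs (K : Set I)) (χ : W → ℂ) =
      (Nat.card (H439.CC.WJ cs (J : Set I)) : ℂ)⁻¹ *
        ∑ᶠ w : H439.CC.WJ cs (J : Set I), (-1) ^ cs.length (w : W) * (χ : W → ℂ) w :=
  solomon cs J χ fun x g => Cfsg.Agent.Characters.Core.isIrr_isClassFunction χ.2 g x

end Fin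

end Cfsg.Agent.H350.LB
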